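import Cfsg.Agent.Lib.CosetEnum.Fi23
import Cfsg.Agent.Lib.Schur.Main

/-!
# Lifting Coxeter relations through a central extension
-/

set_option autoImplicit false

namespace H60.YM
open Cfsg H54 H18 H18.TC Subgroup

variable {Γ Q : Type*} [Group Γ] [Group Q] {σ : Γ →* Q} (hc : σ.ker ≤ center Γ)
include hc

theorem exists_lift_hom {F : Type} [Group F] (hF : HasCyclicSchurMultiplier F 1) (hp : commutator F = ⊤)
    (hs : Function.Surjective σ) (θ : F →* Q) : ∃ l : F →* Γ, ∀ f, σ (l f) = θ f := by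
  let X := (θ.comp (MonoidHom.fst F Γ)).eqLocus (σ.comp (MonoidHom.snd F Γ))
  obtain ⟨η, hη, -⟩ := H78.Schur.exists_hom_commutator hF H78.Schur.stem_id (by simp)
    ((MonoidHom.fst F Γ).comp X.subtype) (fun p => let ⟨γ, hγ⟩ := hs (θ p); ⟨⟨(p, γ), hγ.symm⟩, rfl⟩)
    fun a ha => mem_center_iff.2 fun b => Subtype.ext (Prod.ext
      (show b.1.1 * a.1.1 = a.1.1 * b.1.1 by rw [show a.1.1 = 1 from ha, mul_one, one_mul])
      (mem_center_iff.1 (hc ((show σ a.1.2 = θ a.1.1 from a.2.symm).trans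
        (by rw [show a.1.1 = 1 from ha, map_one]))) _))
  refine ⟨((MonoidHom.snd F Γ).comp X.subtype).comp
    (η.comp ((MonoidHom.id F).codRestrict _ fun f => hp ▸ mem_top f)), fun f => ?_⟩
  exact (η ⟨f, hp ▸ mem_top f⟩).2.symm.trans (congrArg θ (DFunLike.congr_fun hη ⟨f, hp ▸ mem_top f⟩))

theorem comm_of_braid {a b c : Γ} (h : a * b * a = b * a * b) (h1 : Commute c a)
    (h2 : Commute (σ c) (σ b)) : Commute c b := by
  have h3 : ∀ g, g * (c * b * c⁻¹ * b⁻¹) = c * b * c⁻¹ * b⁻¹ * g := mem_center_iff.1 (hc (by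
    rw [MonoidHom.mem_ker, map_mul, map_mul, map_mul, h2.eq]; simp))
  have h4 := congrArg (MulAut.conj c) h
  have h5 : c * b * c⁻¹ = c * b * c⁻¹ * b⁻¹ * b := by group
  simp only [map_mul, MulAut.conj_apply, h1.eq, mul_inv_cancel_right] at h4
  rw [h5] at h4
  generalize he : c * b * c⁻¹ * b⁻¹ = e at h3 h4
  have h6 : e * (a * b * a) = e * (e * (b * a * b)) := by
    calc _ = a * (e * b) * a := by rw [← mul_assoc a, h3 a]; simp only [mul_assoc]
      _ = e * (b * a * e * b) := by rw [h4]; simp only [mul_assoc]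
      _ = _ := by rw [h3 (b * a)]; simp only [mul_assoc]
  rw [h, mul_right_inj, right_eq_mul] at h6
  rw [h6, mul_inv_eq_one, mul_inv_eq_iff_eq_mul] at he
  exact he

theorem exists_braid (hs : Function.Surjective σ) {a : Γ} {y : Q} (a2 : a * a = 1)
    (h : σ a * y * σ a = y * σ a * y) : ∃ b, σ b = y ∧ b * b = 1 ∧ (b * a) ^ 3 = 1 := by
  obtain ⟨y, rfl⟩ := hs y
  have h1 : (y * a * y)⁻¹ * (a * y * a) ∈ σ.ker := by
    rw [MonoidHom.mem_ker, map_mul, map_inv, map_mul, map_mul, map_mul, map_mul, h, inv_mul_cancel]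
  have h2 := mem_center_iff.1 (hc h1)
  have h3 : a * y * a = y * a * y * ((y * a * y)⁻¹ * (a * y * a)) := by group
  generalize (y * a * y)⁻¹ * (a * y * a) = w at h1 h2 h3
  have h4 : a * (y * w) * a = y * w * a * (y * w) := by
    calc _ = a * y * (w * a) := by simp only [mul_assoc]
      _ = y * (a * y * w) * w := by rw [← h2, ← mul_assoc, h3]; simp only [mul_assoc]
      _ = _ := by rw [h2 (a * y)]; simp only [mul_assoc]
  have h5 : σ (y * w) = σ y := by rw [map_mul, h1, mul_one]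
  generalize y * w = b at h4 h5
  have h6 : b * b = 1 := by
    calc _ = (a * b) * (a * a) * (a * b)⁻¹ := by
          conv_lhs => rw [show b = a * b * a * (a * b)⁻¹ by rw [h4]; group]
          group
      _ = 1 := by rw [a2]; group
  refine ⟨b, h5, h6, ?_⟩
  calc _ = b * a * b * (a * b * a) := by simp only [pow_succ, pow_zero, one_mul, mul_assoc]
    _ = b * (a * (b * b) * a) * b := by rw [h4]; simp only [mul_assoc]
    _ = 1 := by rw [h6, mul_one, a2, mul_one, h6]

omit hc in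
/-- a list of deductions `[c, a] = 1`, `a` joined to `b` ⟹ `[c, b] = 1` -/
def Ok (n : ℕ) (R : List (List ℕ)) : List (ℕ × ℕ × ℕ) → List (List ℕ) → Bool
  | [], _ => true
  | (c, a, b) :: st, L => decide ((c < n ∧ b < n) ∧ ([c, a, c, a] ∈ L ∨ [a, c, a, c] ∈ L) ∧
      ([a, b, a, b, a, b] ∈ L ∨ [b, a, b, a, b, a] ∈ L) ∧ ([c, b, c, b] ∈ R ∨ [b, c, b, c] ∈ R)) &&
      Ok n R st ([c, b, c, b] :: L)

theorem steps {g : ℕ → Γ} {x : ℕ → Q} {n : ℕ} {R : List (List ℕ)} (hx : Sat x n R)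
    (e : ∀ i, i < n → σ (g i) = x i) : ∀ (st : List (ℕ × ℕ × ℕ)) (L : List (List ℕ)), Sat g n L →
    Ok n R st L = true → Sat g n (st.map (fun s => [s.1, s.2.2, s.1, s.2.2]) ++ L)
  | [], _, h, _ => h
  | (c, a, b) :: st, L, h, k => by
    simp only [Ok, Bool.and_eq_true, decide_eq_true_eq] at k
    obtain ⟨⟨⟨k1, k2⟩, k3, k4, k5⟩, k6⟩ := k
    have h1 : Commute (g c) (g b) := comm_of_braid hc (by
      have := h.conj k4
      rw [ev_cons, ev_single, mul_inv_eq_iff_eq_mul, ← mul_assoc] at this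
      exact this) (h.comm k3) (by rw [e c k1, e b k2]; exact hx.comm k5)
    have h2 := steps hx e st _ (h.add (R := [c, b, c, b]) (by
      simp only [ev_cons, ev_nil, one_mul]
      rw [← h1.eq, mul_assoc (g c), h.sq, mul_one, h.sq])) k6
    exact ⟨h.inv, h.one, fun R hR => h2.rel R (List.perm_middle.mem_iff.2 hR)⟩

omit hc in
theorem eqns_lift : True := by
  have := @Ok.eq_1
  have := @Ok.eq_def
  trivial

end H60.YM
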