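import Cfsg.Agent.Lib.YMult.Lift
import Cfsg.Agent.Lib.MonSC.YAbs
import Cfsg.Agent.S2054

/-!
# A Y553 diagram lifts to every central extension
-/

set_option autoImplicit false
set_option maxRecDepth 100000

namespace H60.YM
open Cfsg H54 H18 H18.TC H18.YG Subgroup

theorem rep_back {G : Type*} [Group G] {g : ℕ → G} {nc : ℕ} {rels : List (List ℕ)} (h : Sat g nc rels) (m : ℕ)
    (v w u : List ℕ) (rv : Bool) (st : List (ℕ × ℕ × ℕ))
    (c : leq (vk rels st (v ++ (u.reverse ++ cond rv w.reverse w ++ u).reverse)) [] = true) :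
    ev g (rep m v) = 1 ↔ ev g (rep m w) = 1 := by
  rw [ev_rep, ev_rep, h.eq_of_vk' st _ _ c, ev_append, ev_append, h.ev_reverse, ← mul_assoc, conj_pow,
    conj_eq_one_iff]
  cases rv
  · rfl
  · rw [cond_true, h.ev_reverse, inv_pow, inv_eq_one]

theorem sat_of {G : Type*} [Group G] {g : ℕ → G} {nc : ℕ} {L L' : List (List ℕ)} (h : Sat g nc L)
    (c : ∀ R ∈ L', R ∈ L ∨ R.reverse ∈ L ∨ ∃ n < nc, R = [n, n]) : Sat g nc L' :=
  ⟨h.inv, h.one, fun R hR => by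
    rcases c R hR with c | c | ⟨n, -, rfl⟩
    · exact h.rel R c
    · rw [← inv_eq_one, ← h.ev_reverse, h.rel _ c]
    · rw [ev_cons, ev_single, h.sq]⟩

theorem back_sp {G : Type*} [Group G] {g : ℕ → G} (h : Sat g 14 R553.dropLast) :
    ev g (rep 10 [0, 11, 12, 0, 6, 7, 0, 1, 2]) = 1 ↔ ev g (rep 10 [0, 1, 2, 0, 6, 7, 0, 11, 12]) = 1 :=
  rep_back h 10 _ _ [0, 2, 7, 12] true
    [(0, 0, 0), (4, 24, 0), (5, 150, 0), (6, 164, 0), (7, 24, 0), (8, 50, 0), (9, 74, 0), (6, 14, 0),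
      (7, 40, 0), (8, 64, 0), (6, 4, 1), (5, 62, 0), (4, 4, 1), (5, 14, 1), (3, 72, 0), (4, 162, 0),
      (2, 4, 1), (3, 14, 1), (4, 24, 1), (2, 64, 1), (3, 74, 1), (2, 164, 1)] (by decide +kernel)

theorem back_e7 {G : Type*} [Group G] {g : ℕ → G} (h : Sat g 14 R553.dropLast) :
    ev g (rep 9 [13, 12, 11, 0, 6, 7, 1]) = 1 ↔ ev g (rep 9 w3) = 1 :=
  rep_back h 9 _ _ [11, 12, 11, 13, 12, 11] false
    [(0, 208, 0), (11, 202, 0), (10, 200, 0), (12, 206, 0), (13, 202, 0), (7, 40, 0), (8, 164, 1),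
      (9, 162, 1), (10, 166, 1), (11, 164, 1), (12, 162, 1), (9, 202, 1), (11, 200, 0), (7, 50, 1),
      (8, 52, 1), (9, 50, 1), (10, 48, 1), (6, 150, 1), (7, 152, 1), (8, 150, 1), (9, 148, 1),
      (5, 24, 1), (6, 26, 1), (7, 24, 1), (4, 200, 1), (5, 202, 1), (2, 202, 0), (4, 206, 1),
      (6, 200, 1)] (by decide +kernel)

theorem lift553 {Γ Q : Type*} [Group Γ] [Group Q] {σ : Γ →* Q} (hc : σ.ker ≤ center Γ)
    (hs : Function.Surjective σ) {x : ℕ → Q} (hx : Sat x 14 RM) :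
    ∃ g : ℕ → Γ, Sat g 14 RM ∧ ∀ n, n < 14 → σ (g n) = x n := by
  have k : Sat x 14 R553.dropLast := hx.of_sub (by decide +kernel)
  obtain ⟨θ, hθ⟩ := Fi23.exists_hom (((hx.add ((back_sp k).2 (hx.rel _ (by decide +kernel)))).add
    ((back_e7 k).2 (hx.rel _ (by decide +kernel)))).sub [13, 12, 11, 0, 6, 7, 8, 9, 1, 2] (by decide +kernel))
  obtain ⟨l, hl⟩ := exists_lift_hom hc Agent.S2054.result Fi23.perfect hs θ
  have h2 := Fi23.sat.map l
  have br : ∀ {a : Γ} (i j : ℕ), σ a = x i → a * a = 1 → [i, j, i, j, i, j] ∈ RM →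
      ∃ b, σ b = x j ∧ b * b = 1 ∧ (b * a) ^ 3 = 1 := fun i j e a2 c => exists_braid hc hs a2 (by
    have := hx.conj (Or.inl c)
    rw [ev_cons, ev_single, mul_inv_eq_iff_eq_mul, ← mul_assoc] at this
    rwa [e])
  obtain ⟨y3, a3, b3, c3⟩ := br 2 3 ((hl _).trans (hθ 9 (by norm_num))) (h2.sq 9) (by decide +kernel)
  obtain ⟨y4, a4, b4, c4⟩ := br 3 4 a3 b3 (by decide +kernel)
  obtain ⟨y5, a5, b5, c5⟩ := br 4 5 a4 b4 (by decide +kernel)
  obtain ⟨y10, a10, b10, c10⟩ := br 9 10 ((hl _).trans (hθ 7 (by norm_num))) (h2.sq 7) (by decide +kernel)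
  let t := fun i => l (Fi23.s i)
  let g : ℕ → Γ := fun n => [t 3, t 8, t 9, y3, y4, y5, t 4, t 5, t 6, t 7, y10, t 2, t 1, t 0].getD n 1
  have e : ∀ n, n < 14 → σ (g n) = x n := fun n hn => by
    interval_cases n <;> first | assumption | exact (hl _).trans (hθ _ (by norm_num))
  have g2 : ∀ n, g n * g n = 1 := fun n => by
    rcases Nat.lt_or_ge n 14 with hn | hn
    · interval_cases n <;> first | assumption | exact h2.sq _
    · rw [show g n = 1 from List.getD_eq_default _ _ hn, mul_one]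
  have h3 : Sat g 14 (Q23.rels.map (List.map (lab [13, 12, 11, 0, 6, 7, 8, 9, 1, 2] 14))) :=
    ⟨fun n => eq_inv_of_mul_eq_one_left (g2 n), rfl, fun R' hR' => by
      obtain ⟨R, hR, rfl⟩ := List.mem_map.1 hR'
      rw [← ev_map', ← h2.rel R hR]
      refine congrArg List.prod (List.map_congr_left fun n hn => ?_)
      have := (by decide +kernel : ∀ R ∈ Q23.rels, ∀ n ∈ R, n < 10) R hR n (List.mem_reverse.1 hn)
      interval_cases n <;> rfl⟩
  have c : ∀ i j, (g j * g i) ^ 3 = 1 → ev g [i, j, i, j, i, j] = 1 := fun i j h => by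
    rw [← h, ← ev_single g j, ← ev_cons, ← ev_rep]; rfl
  have h4 := steps hc hx e [(0, 2, 3), (0, 3, 4), (0, 4, 5), (0, 9, 10), (3, 0, 1), (1, 3, 4), (1, 4, 5), (1, 9, 10), (4, 1, 2), (2, 4, 5), (2, 9, 10), (5, 2, 3), (3, 0, 6), (3, 6, 7), (8, 2, 3), (9, 2, 3), (10, 2, 3), (11, 2, 3), (3, 11, 12), (3, 12, 13), (4, 0, 6), (4, 6, 7), (8, 3, 4), (9, 3, 4), (10, 3, 4), (11, 3, 4), (4, 11, 12), (4, 12, 13), (5, 0, 6), (5, 6, 7), (8, 4, 5), (9, 4, 5), (10, 4, 5), (11, 4, 5), (12, 4, 5), (13, 4, 5), (10, 0, 6), (10, 6, 7), (10, 7, 8), (10, 0, 11), (10, 11, 12), (10, 12, 13)] _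
    ((((h3.add (c 2 3 c3)).add (c 3 4 c4)).add (c 4 5 c5)).add (c 9 10 c10)) (by decide +kernel)
  have h5 : Sat g 14 R553.dropLast := sat_of h4 (by decide +kernel)
  exact ⟨g, ((h5.add ((back_sp h5).1 (h3.rel _ (by decide +kernel)))).add
    ((back_e7 h5).1 (h3.rel _ (by decide +kernel)))).of_sub (by decide +kernel), e⟩

end H60.YM
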